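import Cfsg.Agent.H961.FC.ClDet

/-!
# S5764, L-C6mt for unitary and symplectic groups (helper961)

* `lift_B` : the elements of `A` lift to isometries of determinant `1`;
* `fiveB_of` : **L-C6mt**, unitary and symplectic case.
-/

set_option autoImplicit false

namespace Cfsg.Agent.H961.FC

open Cfsg.Agent.H198.FC

universe u v

variable {K : Type u} [Field K] {V : Type v} [AddCommGroup V] [Module K V] (b : Cl K V)

/-- isometries of determinant `1` -/
def Iu : Subgroup (R K V)ˣ where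
  carrier := {y | LinearMap.det (y : R K V) = 1 ∧ b.Isom y}
  one_mem' := ⟨by rw [Units.val_one, map_one], fun _ _ => rfl⟩
  mul_mem' := by
    rintro y z ⟨h1, h2⟩ ⟨h3, h4⟩
    refine ⟨by rw [Units.val_mul, map_mul, h1, h3, mul_one], fun v w => ?_⟩
    rw [Units.val_mul]
    show b.B ((y : R K V) ((z : R K V) v)) ((y : R K V) ((z : R K V) w)) = _
    rw [h2, h4]
  inv_mem' := by
    rintro y ⟨h1, h2⟩
    refine ⟨?_, fun v w => ?_⟩
    · have h4 : LinearMap.det (y : R K V) * LinearMap.det ((y⁻¹ : (R K V)ˣ) : R K V) = 1 := by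
        rw [← map_mul, Units.mul_inv, map_one]
      rwa [h1, one_mul] at h4
    · rw [← h2, units_apply_inv, units_apply_inv]

theorem mem_Iu {y : (R K V)ˣ} : y ∈ Iu b ↔ LinearMap.det (y : R K V) = 1 ∧ b.Isom y := Iff.rfl

/-- isometries and adjoints -/
theorem isom_iff_adj {y : (R K V)ˣ} : b.Isom y ↔ b.Adj y ((y⁻¹ : (R K V)ˣ) : R K V) := by
  constructor
  · intro h v w
    rw [← h v, units_apply_inv]
  · intro h v w
    have h1 := h v ((y : R K V) w)
    rw [units_inv_apply] at h1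
    exact h1

/-- elements of `RB b` normalize the isometry group -/
theorem conj_isom {f : Equiv.Perm (R K V)} (hf : f ∈ RB b) {y : (R K V)ˣ} (hy : b.Isom y) :
    ∃ y' : (R K V)ˣ, (y' : R K V) = f y ∧ b.Isom y' ∧ f * cj K V y * f⁻¹ = cj K V y' := by
  obtain ⟨y', h1, h2, h3⟩ := conj_RP hf.1 y
  refine ⟨y', h1, ?_, h3⟩
  rw [isom_iff_adj, h1, h2]
  exact (hf.2 _ _).1 ((isom_iff_adj b).1 hy)

/-- elements of `RB b` normalize the image of the group of isometries of determinant `1` -/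
theorem conj_Iu [Module.Finite K V] (hSN : StmtSN.{u, v}) (hV : 1 ≤ Module.finrank K V) {f : Equiv.Perm (R K V)}
    (hf : f ∈ RB b) {y : (R K V)ˣ} (hy : y ∈ Iu b) : ∃ y' ∈ Iu b, f * cj K V y * f⁻¹ = cj K V y' := by
  obtain ⟨σ, hσ⟩ := det_RP hSN hV hf.1
  obtain ⟨y', h1, h2, h3⟩ := conj_isom b hf hy.2
  exact ⟨y', ⟨by rw [h1, hσ, hy.1, map_one], h2⟩, h3⟩

section

variable [Finite K] [Module.Finite K V] {S A : Subgroup (Equiv.Perm (R K V))} {r a : ℕ}

/-- unitary case -/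
theorem lift_U (hU : b.IsU) (hSN : StmtSN.{u, v}) (hD : C6Data S A r a) (hSR : S ≤ RB b) :
    ∀ f ∈ A, ∃ y ∈ Iu b, cj K V y = f := by
  have hV : 1 ≤ Module.finrank K V := by rw [hD.2.2.1]; exact pow_pos hD.1.pos a
  have := nontrivial_of hD.1 hD.2.2.1
  let n := Module.finrank K V
  let K1 : Subgroup Kˣ :=
    { carrier := {c | (c : K) * b.τ c = 1}
      one_mem' := by simp
      mul_mem' := by
        intro c d hc hd
        show ((c * d : Kˣ) : K) * b.τ ((c * d : Kˣ) : K) = 1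
        rw [Units.val_mul, map_mul]
        calc (c : K) * d * (b.τ c * b.τ d) = ((c : K) * b.τ c) * (d * b.τ d) := by ring
          _ = 1 := by rw [hc, hd, one_mul]
      inv_mem' := by
        intro c hc
        show ((c⁻¹ : Kˣ) : K) * b.τ ((c⁻¹ : Kˣ) : K) = 1
        rw [Units.val_inv_eq_inv_val, map_inv₀, ← mul_inv, hc, inv_one] }
  let Q : Subgroup Kˣ := K1.map (powMonoidHom n)
  have hcyc : IsCyclic (Kˣ ⧸ Q) := isCyclic_of_surjective (QuotientGroup.mk' Q) (QuotientGroup.mk'_surjective Q)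
  let U : Subgroup (R K V)ˣ :=
    { carrier := {y | cj K V y ∈ A ∧ b.Isom y}
      one_mem' := ⟨by rw [map_one]; exact one_mem _, fun _ _ => rfl⟩
      mul_mem' := by
        rintro y z ⟨h1, h2⟩ ⟨h3, h4⟩
        refine ⟨by rw [map_mul]; exact mul_mem h1 h3, fun v w => ?_⟩
        rw [Units.val_mul]
        show b.B ((y : R K V) ((z : R K V) v)) ((y : R K V) ((z : R K V) w)) = _
        rw [h2, h4]
      inv_mem' := by
        rintro y ⟨h1, h2⟩
        refine ⟨by rw [map_inv]; exact inv_mem h1, fun v w => ?_⟩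
        rw [← h2, units_apply_inv, units_apply_inv] }
  refine lift_generic hD (Iu b) (fun f hf y hy => conj_Iu b hSN hV (hSR hf) hy) ((cj K V).comp U.subtype) ?_
    ((QuotientGroup.mk' Q).comp ((Units.map (LinearMap.det : R K V →* K)).comp U.subtype)) (fun u hu => ?_)
  · apply le_antisymm
    · rintro - ⟨u, rfl⟩
      exact u.2.1
    · intro f hf
      obtain ⟨y, rfl⟩ := hD.2.2.2.2.1 hf
      obtain ⟨y', h1, h2⟩ := exists_isom b hU (hSR (hD.2.2.2.1 hf))
      exact ⟨⟨y', by rw [h2]; exact hf, h1⟩, h2⟩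
  · have h1 : Units.map (LinearMap.det : R K V →* K) u ∈ Q := (QuotientGroup.eq_one_iff _).1 hu
    obtain ⟨c, hc1, hc⟩ := h1
    have hc1' : (c : K) * b.τ c = 1 := hc1
    refine ⟨smulU c⁻¹ u, ⟨?_, fun v w => ?_⟩, cj_smulU _ _⟩
    · rw [det_smulU]
      have h2 : (c : K) ^ n = LinearMap.det ((u : (R K V)ˣ) : R K V) := congrArg Units.val hc
      rw [← h2, Units.val_inv_eq_inv_val, inv_pow]
      exact inv_mul_cancel₀ (pow_ne_zero _ c.ne_zero)
    · show b.B (((c⁻¹ : Kˣ) : K) • ((u : (R K V)ˣ) : R K V) v) (((c⁻¹ : Kˣ) : K) • ((u : (R K V)ˣ) : R K V) w) = _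
      rw [b.smul_left, b.smul_right, u.2.2, ← mul_assoc, Units.val_inv_eq_inv_val, map_inv₀, ← mul_inv, hc1',
        inv_one, one_mul]

/-- symplectic case -/
theorem lift_Sp (hS : b.IsSp) (hD : C6Data S A r a) (hSR : S ≤ RB b) :
    ∀ f ∈ A, ∃ y ∈ Iu b, cj K V y = f := by
  have := nontrivial_of hD.1 hD.2.2.1
  let Q : Subgroup Kˣ := (powMonoidHom 2 : Kˣ →* Kˣ).range
  have hcyc : IsCyclic (Kˣ ⧸ Q) := isCyclic_of_surjective (QuotientGroup.mk' Q) (QuotientGroup.mk'_surjective Q)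
  let U : Subgroup ((R K V)ˣ × Kˣ) :=
    { carrier := {y | cj K V y.1 ∈ A ∧ ∀ v w, b.B ((y.1 : R K V) v) ((y.1 : R K V) w) = (y.2 : K) * b.B v w}
      one_mem' := ⟨by rw [Prod.fst_one, map_one]; exact one_mem _, fun v w => by simp⟩
      mul_mem' := by
        rintro y z ⟨h1, h2⟩ ⟨h3, h4⟩
        refine ⟨by rw [Prod.fst_mul, map_mul]; exact mul_mem h1 h3, fun v w => ?_⟩
        rw [Prod.fst_mul, Units.val_mul, Prod.snd_mul, Units.val_mul]
        show b.B ((y.1 : R K V) ((z.1 : R K V) v)) ((y.1 : R K V) ((z.1 : R K V) w)) = _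
        rw [h2, h4, mul_assoc]
      inv_mem' := by
        rintro y ⟨h1, h2⟩
        refine ⟨by rw [Prod.fst_inv, map_inv]; exact inv_mem h1, fun v w => ?_⟩
        have h3 := h2 (((y.1⁻¹ : (R K V)ˣ) : R K V) v) (((y.1⁻¹ : (R K V)ˣ) : R K V) w)
        rw [units_apply_inv, units_apply_inv] at h3
        rw [Prod.fst_inv, Prod.snd_inv, h3, ← mul_assoc, ← Units.val_mul, inv_mul_cancel, Units.val_one, one_mul] }
  refine lift_generic hD (Iu b) (fun f hf y hy => ?_) ((cj K V).comp ((MonoidHom.fst _ _).comp U.subtype)) ?_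
    ((QuotientGroup.mk' Q).comp ((MonoidHom.snd _ _).comp U.subtype)) (fun u hu => ?_)
  · obtain ⟨y', h1, h2, h3⟩ := conj_isom b (hSR hf) hy.2
    exact ⟨y', ⟨det_isom_Sp b hS h2, h2⟩, h3⟩
  · apply le_antisymm
    · rintro - ⟨u, rfl⟩
      exact u.2.1
    · intro f hf
      obtain ⟨y, rfl⟩ := hD.2.2.2.2.1 hf
      obtain ⟨μ, hμ, h⟩ := simil b (hSR (hD.2.2.2.1 hf))
      exact ⟨⟨(y, Units.mk0 μ hμ), hf, h⟩, rfl⟩
  · have h1 : u.1.2 ∈ Q := (QuotientGroup.eq_one_iff _).1 hu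
    obtain ⟨c, hc⟩ := h1
    have hc' : (c : K) ^ 2 = (u.1.2 : K) := congrArg Units.val hc
    have hi : b.Isom (smulU c⁻¹ u.1.1) := by
      intro v w
      show b.B (((c⁻¹ : Kˣ) : K) • (u.1.1 : R K V) v) (((c⁻¹ : Kˣ) : K) • (u.1.1 : R K V) w) = _
      rw [b.smul_left, b.smul_right, hS.1, u.2.2, ← hc', Units.val_inv_eq_inv_val]
      have := c.ne_zero
      field_simp
    exact ⟨smulU c⁻¹ u.1.1, ⟨det_isom_Sp b hS hi, hi⟩, cj_smulU _ _⟩

/-- the elements of `A` lift to isometries of determinant `1` -/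
theorem lift_B (hSN : StmtSN.{u, v}) (hD : C6Data S A r a) (hSR : S ≤ RB b) :
    ∀ f ∈ A, ∃ y : (R K V)ˣ, LinearMap.det (y : R K V) = 1 ∧ b.Isom y ∧ cj K V y = f := by
  intro f hf
  have h : ∃ y ∈ Iu b, cj K V y = f := by
    rcases b.typ with h | h
    · exact lift_U b h hSN hD hSR f hf
    · exact lift_Sp b h hD hSR f hf
  obtain ⟨y, hy, h⟩ := h
  exact ⟨y, hy.1, hy.2, h⟩

/-- **L-C6mt**, unitary and symplectic groups -/
theorem fiveB_of (hSN : StmtSN.{u, v}) (hD : C6Data S A r a) (hSR : S ≤ RB b)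
    (hS : Group.IsSolvable S) (x : (R K V)ˣ) (hx1 : LinearMap.det (x : R K V) = 1) (hxi : b.Isom x)
    (hx : ∀ f ∈ S, (∀ g ∈ A, f * g = g * f) → cj K V x * f * (cj K V x)⁻¹ ∈ S → f = 1) : FiveB b S :=
  fiveB_of_lift hD hS (lift_B b hSN hD hSR) x hx1 hxi hx

end

end Cfsg.Agent.H961.FC
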